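import Cfsg.Agent.Lib.Helper16.CharP
import Cfsg.Agent.Lib.Helper16.Large
import Cfsg.Agent.Lib.Helper16.Comm
import Cfsg.Agent.Lib.Helper9.Generation
import Cfsg.Agent.Lib.Helper4.Basic

/-! A normal four-subgroup of a Sylow 2-subgroup in a group of characteristic 2 type. -/

namespace Cfsg.Agent.Lib.Helper16

open Cfsg

variable {G : Type*} [Group G]

/-- element form of "`U` is a four-group" -/
structure K4 (U : Subgroup G) : Prop where
  sq : ∀ v ∈ U, v * v = 1
  comm : ∀ v ∈ U, ∀ w ∈ U, v * w = w * v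
  cases : ∀ u ∈ U, ∀ v ∈ U, ∀ w ∈ U, u ≠ 1 → v ≠ 1 → u ≠ v → w = 1 ∨ w = u ∨ w = v ∨ w = u * v
  card : Nat.card U = 4

theorem k4_of_isKleinFour {U : Subgroup G} (h : IsKleinFour ↥U) : K4 U where
  sq := fun v hv => by
    have := IsKleinFour.mul_self (⟨v, hv⟩ : U)
    simpa [Subtype.ext_iff] using this
  comm := fun v hv w hw => by
    have h1 : ∀ x : U, x * x = 1 := fun x => IsKleinFour.mul_self x
    have h2 : (⟨v, hv⟩ : U) * ⟨w, hw⟩ = ⟨w, hw⟩ * ⟨v, hv⟩ := by
      have a := h1 (⟨v, hv⟩ * ⟨w, hw⟩)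
      have b := h1 ⟨v, hv⟩
      have c := h1 ⟨w, hw⟩
      have e1 : (⟨v, hv⟩ : U)⁻¹ = ⟨v, hv⟩ := inv_eq_of_mul_eq_one_left b
      have e2 : (⟨w, hw⟩ : U)⁻¹ = ⟨w, hw⟩ := inv_eq_of_mul_eq_one_left c
      have e3 : ((⟨v, hv⟩ : U) * ⟨w, hw⟩)⁻¹ = ⟨v, hv⟩ * ⟨w, hw⟩ := inv_eq_of_mul_eq_one_left a
      rw [mul_inv_rev, e1, e2] at e3
      exact e3.symm
    simpa [Subtype.ext_iff] using h2
  cases := fun u hu v hv w hw hu1 hv1 huv => by
    by_cases h1 : w = 1
    · exact Or.inl h1
    by_cases h2 : w = u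
    · exact Or.inr (Or.inl h2)
    by_cases h3 : w = v
    · exact Or.inr (Or.inr (Or.inl h3))
    refine Or.inr (Or.inr (Or.inr ?_))
    have := IsKleinFour.eq_mul_of_ne_all (x := (⟨u, hu⟩ : U)) (y := ⟨v, hv⟩) (z := ⟨w, hw⟩)
      (by simpa [Subtype.ext_iff] using hu1) (by simpa [Subtype.ext_iff] using hv1)
      (by simpa [Subtype.ext_iff] using huv) (by simpa [Subtype.ext_iff] using h1)
      (by simpa [Subtype.ext_iff] using h2) (by simpa [Subtype.ext_iff] using h3)
    simpa [Subtype.ext_iff] using this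
  card := h.card_four

theorem mem_zpowers_of_sq {u x : G} (hu : u * u = 1) (hx : x ∈ Subgroup.zpowers u) : x = 1 ∨ x = u := by
  obtain ⟨k, rfl⟩ := Subgroup.mem_zpowers_iff.mp hx
  have h2 : u ^ (2 : ℤ) = 1 := by rw [zpow_two]; exact hu
  obtain ⟨m, rfl | rfl⟩ := Int.even_or_odd' k
  · left; rw [zpow_mul, h2, one_zpow]
  · right; rw [zpow_add, zpow_mul, h2, one_zpow, one_mul, zpow_one]

theorem conj_eq_of_mem_normalizer_zpowers {u x : G} (hu : u * u = 1)
    (hx : x ∈ Subgroup.normalizer (Subgroup.zpowers u : Set G)) : x * u * x⁻¹ = u := by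
  have h1 : x * u * x⁻¹ ∈ Subgroup.zpowers u :=
    conj_mem_of_le_normalizer le_rfl hx (Subgroup.mem_zpowers u)
  rcases mem_zpowers_of_sq hu h1 with h | h
  · have : u = 1 := by simpa using h
    rw [this]; simp
  · exact h

theorem mem_normalizer_zpowers_of_conj_eq {u x : G} (hx : x * u * x⁻¹ = u) :
    x ∈ Subgroup.normalizer (Subgroup.zpowers u : Set G) := by
  apply Subgroup.centralizer_le_normalizer
  rw [mem_centralizer_iff_commute]
  intro w hw
  obtain ⟨k, rfl⟩ := Subgroup.mem_zpowers_iff.mp hw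
  have : Commute x u := mul_inv_eq_iff_eq_mul.mp hx
  exact this.zpow_right k

theorem isPGroup_zpowers_of_sq {u : G} (hu : u * u = 1) : IsPGroup 2 (Subgroup.zpowers u) := by
  rintro ⟨x, hx⟩
  refine ⟨1, Subtype.ext ?_⟩
  rcases mem_zpowers_of_sq hu hx with rfl | rfl
  · simp
  · simpa [pow_two] using hu

theorem K4.comm_mem_zpowers {U : Subgroup G} (h : K4 U) {u g : G} (hu : u ∈ U) (hu1 : u ≠ 1)
    (hg : g ∈ Subgroup.normalizer (U : Set G)) (hgu : g * u * g⁻¹ = u) {v : G} (hv : v ∈ U) :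
    g * v * g⁻¹ * v⁻¹ ∈ Subgroup.zpowers u := by
  by_cases hv1 : v = 1
  · subst hv1; simp
  by_cases hvu : u = v
  · subst hvu; rw [hgu]; simp
  have hw : g * v * g⁻¹ ∈ U := conj_mem_of_le_normalizer le_rfl hg hv
  rcases h.cases u hu v hv _ hw hu1 hv1 hvu with h2 | h2 | h2 | h2
  · exact absurd (by simpa using h2) hv1
  · exfalso
    apply hvu
    rw [← hgu] at h2
    simpa using h2.symm
  · rw [h2]; simp
  · rw [h2]; simp

theorem K4.inf_centralizer_le [Finite G] {U K R : Subgroup G} (h : K4 U) {u : G} (hu : u ∈ U) (hu1 : u ≠ 1)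
    (hL : CharP 2 (Subgroup.normalizer (Subgroup.zpowers u : Set G)))
    (hR : SylIn 2 R (Subgroup.normalizer (Subgroup.zpowers u : Set G)))
    (hRU : R ≤ Subgroup.normalizer (U : Set G))
    (hK : Odd (Nat.card K)) (hUK : U ≤ Subgroup.normalizer (K : Set G)) :
    K ⊓ Subgroup.centralizer ({u} : Set G) ≤ Subgroup.centralizer (U : Set G) := by
  have : Fact (Nat.Prime 2) := ⟨Nat.prime_two⟩
  set T := Subgroup.zpowers u with hT
  set L := Subgroup.normalizer (T : Set G) with hLdef
  set Q := pCoreOf 2 L with hQ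
  have huu := h.sq u hu
  have hfix : ∀ x ∈ L, x * u * x⁻¹ = u := fun x hx => conj_eq_of_mem_normalizer_zpowers huu hx
  have hmemL : ∀ x, x * u * x⁻¹ = u → x ∈ L := fun x hx => mem_normalizer_zpowers_of_conj_eq hx
  have hQR : Q ≤ R := pCoreOf_le_sylIn hR
  have hUL : U ≤ L := fun v hv => hmemL v (by rw [h.comm v hv u hu]; simp)
  have hUS : U ≤ commStab' Q T := by
    intro v hv
    refine ⟨hUL hv, fun q hq => ?_⟩
    have h1 := h.comm_mem_zpowers hu hu1 (hRU (hQR hq)) (hfix q (pCoreOf_le L hq)) hv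
    have h2 := T.inv_mem h1
    simpa [mul_assoc] using h2
  intro y hy
  obtain ⟨hyK, hyu⟩ := hy
  have hyu' : y * u * y⁻¹ = u := by
    have := Subgroup.mem_centralizer_singleton_iff.mp hyu
    rw [this]; simp
  have hyL : y ∈ L := hmemL y hyu'
  rw [mem_centralizer_iff_commute]
  intro v hv
  have hconj : y * v * y⁻¹ ∈ commStab' Q T := by
    refine ⟨L.mul_mem (L.mul_mem hyL (hUL hv)) (L.inv_mem hyL), fun q hq => ?_⟩
    have hq' : y⁻¹ * q * y ∈ Q := conj_mem_of_le_normalizer' (le_normalizer_pCoreOf L) hyL hq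
    have h1 := (hUS hv).2 _ hq'
    have h2 := conj_mem_of_le_normalizer (le_refl L) hyL h1
    simpa [mul_assoc] using h2
  have hc : y * v * y⁻¹ * v⁻¹ ∈ commStab' Q T :=
    (commStab' Q T).mul_mem hconj ((commStab' Q T).inv_mem (hUS hv))
  have hcK : y * v * y⁻¹ * v⁻¹ ∈ K := by
    have := K.mul_mem hyK (conj_mem_of_le_normalizer hUK hv (K.inv_mem hyK))
    simpa [mul_assoc] using this
  have hcop : (orderOf (y * v * y⁻¹ * v⁻¹)).Coprime 2 := by
    have h1 : orderOf (y * v * y⁻¹ * v⁻¹) ∣ Nat.card K := Subgroup.orderOf_dvd_natCard K hcK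
    exact Nat.Coprime.coprime_dvd_left h1 (Nat.coprime_two_right.mpr hK)
  have hTp : IsPGroup 2 T := isPGroup_zpowers_of_sq huu
  have hc1 : y * v * y⁻¹ * v⁻¹ = 1 := by
    refine hL.eq_one_of_coprime hc.1 hcop (fun q hq => ?_)
    refine commute_of_chain hcop hTp (fun r hr => ?_) (hc.2 q hq)
    rcases mem_zpowers_of_sq huu hr with rfl | rfl
    · exact Commute.one_right _
    · exact mul_inv_eq_iff_eq_mul.mp (hfix _ hc.1)
  have h3 : y * v * y⁻¹ = v := mul_inv_eq_one.mp hc1
  exact mul_inv_eq_iff_eq_mul.mp h3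

theorem involution_unique_of_cyc {C : Type*} [Group C] [Finite C] [IsCyclic C] {a b : C}
    (ha2 : orderOf a = 2) (hb2 : orderOf b = 2) : a = b := by
  classical
  cases nonempty_fintype C
  have hd : 2 ∣ Fintype.card C := by
    have := orderOf_dvd_card (x := a)
    rwa [ha2] at this
  have h := IsCyclic.card_orderOf_eq_totient hd
  rw [Nat.totient_two] at h
  exact Finset.card_le_one.mp h.le a (by simp [ha2]) b (by simp [hb2])

theorem eq_one_or_eq_of_cyc [Finite G] {Z : Subgroup G} (hZ : IsCyclic ↥Z) {y z : G} (hy : y ∈ Z) (hz : z ∈ Z)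
    (hyy : y * y = 1) (hzz : z * z = 1) (hz1 : z ≠ 1) : y = 1 ∨ y = z := by
  by_cases hy1 : y = 1
  · exact Or.inl hy1
  right
  have h1 : orderOf (⟨y, hy⟩ : Z) = 2 := by
    rw [Subgroup.orderOf_mk]
    exact orderOf_eq_prime (by rw [pow_two]; exact hyy) hy1
  have h2 : orderOf (⟨z, hz⟩ : Z) = 2 := by
    rw [Subgroup.orderOf_mk]
    exact orderOf_eq_prime (by rw [pow_two]; exact hzz) hz1
  exact congrArg Subtype.val (involution_unique_of_cyc h1 h2)

theorem K4.exists_sylIn_aux [Finite G] {U : Subgroup G} (h : K4 U) (P : Sylow 2 G) (hUP : U ≤ (P : Subgroup G))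
    (hUn : (P : Subgroup G) ≤ Subgroup.normalizer (U : Set G))
    (hcyc : IsCyclic ↥((P : Subgroup G) ⊓ Subgroup.centralizer ((P : Subgroup G) : Set G)))
    {u g : G} (hu : u ∈ U) (hu1 : u ≠ 1) (hg : g ∈ (P : Subgroup G)) (hgu : g * u * g⁻¹ ≠ u) :
    ∃ R, SylIn 2 R (Subgroup.normalizer (Subgroup.zpowers u : Set G)) ∧
      R ≤ Subgroup.normalizer (U : Set G) := by
  have : Fact (Nat.Prime 2) := ⟨Nat.prime_two⟩
  have hUne : U ≠ ⊥ := by
    intro e
    rw [e] at hu
    exact hu1 (Subgroup.mem_bot.mp hu)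
  have hz0 := inf_centralizer_ne_bot (P.2.to_le hUP) P.2 hUn hUne
  obtain ⟨z, hz, hz1⟩ : ∃ z ∈ U ⊓ Subgroup.centralizer ((P : Subgroup G) : Set G), z ≠ 1 := by
    by_contra hcon
    push Not at hcon
    exact hz0 ((Subgroup.eq_bot_iff_forall _).mpr hcon)
  obtain ⟨hzU, hzC⟩ := hz
  have hzc : ∀ a ∈ (P : Subgroup G), a * z = z * a := fun a ha =>
    ((mem_centralizer_iff_commute.mp hzC) a ha).eq.symm
  have hzu : u ≠ z := by
    rintro rfl
    exact hgu (mul_inv_eq_iff_eq_mul.mpr (hzc g hg))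
  have hzz := h.sq z hzU
  have huu := h.sq u hu
  have huz : u * z = z * u := h.comm u hu z hzU
  have hconj : ∀ a ∈ (P : Subgroup G), a * u = u * a ∨ a * u = u * z * a := by
    intro a ha
    have h1 : a * u * a⁻¹ ∈ U := conj_mem_of_le_normalizer hUn ha hu
    rcases h.cases u hu z hzU _ h1 hu1 hz1 hzu with h2 | h2 | h2 | h2
    · exact absurd (by simpa using h2) hu1
    · exact Or.inl (mul_inv_eq_iff_eq_mul.mp h2)
    · exfalso
      apply hzu
      have h3 := mul_inv_eq_iff_eq_mul.mp h2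
      rw [← hzc a ha] at h3
      exact mul_left_cancel h3
    · exact Or.inr (mul_inv_eq_iff_eq_mul.mp h2)
  have hgu' : g * u = u * z * g := (hconj g hg).resolve_left (fun e => hgu (mul_inv_eq_iff_eq_mul.mpr e))
  set P0 := (P : Subgroup G) ⊓ Subgroup.centralizer (U : Set G) with hP0
  have hmemP0 : ∀ a ∈ (P : Subgroup G), a * u = u * a → a ∈ P0 := by
    intro a ha hau
    refine ⟨ha, ?_⟩
    show a ∈ Subgroup.centralizer (U : Set G)
    rw [mem_centralizer_iff_commute]
    intro w hw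
    have c1 : Commute a u := hau
    have c2 : Commute a z := hzc a ha
    rcases h.cases u hu z hzU w hw hu1 hz1 hzu with rfl | rfl | rfl | rfl
    · exact Commute.one_right _
    · exact c1
    · exact c2
    · exact c1.mul_right c2
  have hP0u : ∀ a ∈ P0, a * u = u * a := fun a ha => (mem_centralizer_iff_commute.mp ha.2) u hu
  have hgP0 : g ∉ P0 := fun hh => hgu (mul_inv_eq_iff_eq_mul.mpr (hP0u g hh))
  have hUP0 : U ≤ P0 := fun v hv => ⟨hUP hv, mem_centralizer_iff_commute.mpr (fun w hw => h.comm v hv w hw)⟩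
  -- products with `g`
  have hmulg : ∀ a ∈ (P : Subgroup G), a ∉ P0 → a * g ∈ P0 := by
    intro a ha haP
    have h1 : a * u = u * z * a := (hconj a ha).resolve_left (fun e => haP (hmemP0 a ha e))
    refine hmemP0 _ ((P : Subgroup G).mul_mem ha hg) ?_
    calc a * g * u = a * (g * u) := by rw [mul_assoc]
      _ = a * (u * z * g) := by rw [hgu']
      _ = (a * u) * z * g := by simp only [mul_assoc]
      _ = u * z * (a * z) * g := by rw [h1]; simp only [mul_assoc]
      _ = u * z * (z * a) * g := by rw [hzc a ha]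
      _ = u * (z * z) * a * g := by simp only [mul_assoc]
      _ = u * (a * g) := by rw [hzz]; simp only [mul_one, mul_assoc]
  have hidx : P0.relIndex (P : Subgroup G) = 2 := by
    rw [Subgroup.relIndex_eq_two_iff]
    refine ⟨g, hg, fun b hb => ?_⟩
    by_cases hbP : b ∈ P0
    · refine Or.inr ⟨hbP, fun hh => hgP0 ?_⟩
      exact (Subgroup.mul_mem_cancel_left P0 hbP).mp hh
    · exact Or.inl ⟨hmulg b hb hbP, hbP⟩
  have hg2 : g * g ∈ P0 := hmulg g hg hgP0
  have hgn : g ∈ Subgroup.normalizer (P0 : Set G) :=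
    le_normalizer_inf (K := (P : Subgroup G)) Subgroup.le_normalizer
      (hUn.trans (normalizer_le_normalizer_centralizer U)) hg
  -- elements of `Z(P0)` fixed by `g`
  have hV0 : ∀ y ∈ P0, (∀ a ∈ P0, a * y = y * a) → y * y = 1 → g * y = y * g → y = 1 ∨ y = z := by
    intro y hy hyc hyy hgy
    refine eq_one_or_eq_of_cyc hcyc (y := y) (z := z) ⟨hy.1, ?_⟩ ⟨hUP hzU, hzC⟩ hyy hzz hz1
    show y ∈ Subgroup.centralizer ((P : Subgroup G) : Set G)
    rw [mem_centralizer_iff_commute]
    intro a ha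
    by_cases haP : a ∈ P0
    · exact (hyc a haP).symm
    · have h1 := hyc _ (hmulg a ha haP)
      -- a g y = y a g, g y = y g
      have h2 : a * y * g = y * a * g := by
        calc a * y * g = a * (g * y) := by rw [hgy, mul_assoc]
          _ = a * g * y := by rw [mul_assoc]
          _ = y * (a * g) := h1
          _ = y * a * g := by rw [mul_assoc]
      exact (mul_right_cancel h2).symm
  have hV : ∀ x ∈ P0, (∀ a ∈ P0, a * x = x * a) → x * x = 1 → x ∈ U := by
    intro x hx hxc hxx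
    obtain ⟨x', hx'⟩ : ∃ x', x' = g * x * g⁻¹ := ⟨_, rfl⟩
    have hx'P : x' ∈ P0 := by rw [hx']; exact conj_mem_of_le_normalizer le_rfl hgn hx
    have hx'c : ∀ a ∈ P0, a * x' = x' * a := by
      intro a ha
      have h1 := hxc _ (conj_mem_of_le_normalizer' le_rfl hgn ha)
      -- g⁻¹ a g x = x g⁻¹ a g
      calc a * x' = g * (g⁻¹ * a * g * x) * g⁻¹ := by rw [hx']; simp only [mul_assoc, mul_inv_cancel_left]
        _ = g * (x * (g⁻¹ * a * g)) * g⁻¹ := by rw [h1]
        _ = x' * a := by rw [hx']; simp only [mul_assoc, mul_inv_cancel, mul_one]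
    have hx'x' : x' * x' = 1 := by
      rw [hx']
      calc g * x * g⁻¹ * (g * x * g⁻¹) = g * (x * x) * g⁻¹ := by simp only [mul_assoc, inv_mul_cancel_left]
        _ = 1 := by rw [hxx]; simp
    have hxx' : x * x' = x' * x := hx'c x hx
    have hgx : g * x = x' * g := by rw [hx']; simp
    have hgx' : g * x' = x * g := by
      -- g x' = g g x g⁻¹ = x g g g⁻¹
      have h1 := hxc _ hg2
      calc g * x' = (g * g * x) * g⁻¹ := by rw [hx']; simp only [mul_assoc]
        _ = x * (g * g) * g⁻¹ := by rw [h1]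
        _ = x * g := by simp only [mul_assoc, mul_inv_cancel, mul_one]
    have hw := hV0 (x * x') (P0.mul_mem hx hx'P)
      (fun a ha => by
        calc a * (x * x') = (a * x) * x' := by rw [mul_assoc]
          _ = x * (a * x') := by rw [hxc a ha, mul_assoc]
          _ = x * x' * a := by rw [hx'c a ha, mul_assoc])
      (by
        calc x * x' * (x * x') = x * (x' * x) * x' := by simp only [mul_assoc]
          _ = (x * x) * (x' * x') := by rw [← hxx']; simp only [mul_assoc]
          _ = 1 := by rw [hxx, hx'x', one_mul])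
      (by
        calc g * (x * x') = (g * x) * x' := by rw [mul_assoc]
          _ = x' * (g * x') := by rw [hgx, mul_assoc]
          _ = x' * x * g := by rw [hgx', mul_assoc]
          _ = x * x' * g := by rw [hxx'])
    rcases hw with hw | hw
    · -- x' = x
      have e : x' = x := by
        have : x * x' = x * x := by rw [hw, hxx]
        exact mul_left_cancel this
      rcases hV0 x hx hxc hxx (by rw [hgx, e]) with h1 | h1
      · rw [h1]; exact U.one_mem
      · rw [h1]; exact hzU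
    · -- x' = x z
      have e : x' = x * z := by
        have : x * x' = x * (x * z) := by rw [hw, ← mul_assoc, hxx, one_mul]
        exact mul_left_cancel this
      have hxu : x * u = u * x := (hxc u (hUP0 hu)).symm
      have hxz : x * z = z * x := (hxc z (hUP0 hzU)).symm
      have h2 := hV0 (x * u) (P0.mul_mem hx (hUP0 hu))
        (fun a ha => by
          calc a * (x * u) = (a * x) * u := by rw [mul_assoc]
            _ = x * (a * u) := by rw [hxc a ha, mul_assoc]
            _ = x * u * a := by rw [hP0u a ha, mul_assoc])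
        (by
          calc x * u * (x * u) = x * (u * x) * u := by simp only [mul_assoc]
            _ = (x * x) * (u * u) := by rw [← hxu]; simp only [mul_assoc]
            _ = 1 := by rw [hxx, huu, one_mul])
        (by
          calc g * (x * u) = (g * x) * u := by rw [mul_assoc]
            _ = x * z * (g * u) := by rw [hgx, e, mul_assoc]
            _ = x * (z * u) * z * g := by rw [hgu']; simp only [mul_assoc]
            _ = x * u * (z * z) * g := by rw [← huz]; simp only [mul_assoc]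
            _ = x * u * g := by rw [hzz, mul_one])
      have hxe : x = x * u * u := by rw [mul_assoc, huu, mul_one]
      rcases h2 with h1 | h1
      · rw [hxe, h1, one_mul]; exact hu
      · rw [hxe, h1]; exact U.mul_mem hzU hu
  -- the Sylow subgroup
  have hP0L : P0 ≤ Subgroup.normalizer (Subgroup.zpowers u : Set G) := fun a ha =>
    mem_normalizer_zpowers_of_conj_eq (mul_inv_eq_iff_eq_mul.mpr (hP0u a ha))
  have hP0p : IsPGroup 2 P0 := P.2.to_le inf_le_left
  obtain ⟨R, hR, hP0R⟩ := exists_sylIn_ge hP0p hP0L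
  refine ⟨R, hR, ?_⟩
  have hcard : Nat.card R ≤ Nat.card (P : Subgroup G) := (sylIn_top P).card_le hR.isPGroup le_top
  have e1 := Cfsg.Agent.Lib.Helper4.card_eq_mul_relIndex hP0R
  have e2 := Cfsg.Agent.Lib.Helper4.card_eq_mul_relIndex (inf_le_left : P0 ≤ (P : Subgroup G))
  rw [hidx] at e2
  have hpos : 0 < Nat.card P0 := Nat.card_pos
  have hle2 : P0.relIndex R ≤ 2 := by
    rw [e1, e2] at hcard
    exact Nat.le_of_mul_le_mul_left hcard hpos
  have hRn : R ≤ Subgroup.normalizer (P0 : Set G) := by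
    have hne : P0.relIndex R ≠ 0 := by
      intro e0
      rw [e0, mul_zero] at e1
      exact absurd e1 (Nat.card_pos).ne'
    have h12 : P0.relIndex R = 1 ∨ P0.relIndex R = 2 := by omega
    rcases h12 with h1 | h1
    · have : R ≤ P0 := Subgroup.relIndex_eq_one.mp h1
      exact this.trans Subgroup.le_normalizer
    · rw [← Subgroup.normal_subgroupOf_iff_le_normalizer hP0R]
      exact Subgroup.normal_of_index_eq_two h1
  intro r hr
  refine mem_normalizer_of_conj_le ?_
  rintro _ ⟨v, hv, rfl⟩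
  show r * v * r⁻¹ ∈ U
  refine hV _ (conj_mem_of_le_normalizer hRn hr (hUP0 hv)) (fun a ha => ?_) ?_
  · have h1 : (r⁻¹ * a * r) * v = v * (r⁻¹ * a * r) :=
      (mem_centralizer_iff_commute.mp (conj_mem_of_le_normalizer' hRn hr ha).2) v hv
    calc a * (r * v * r⁻¹) = r * (r⁻¹ * a * r * v) * r⁻¹ := by simp only [mul_assoc, mul_inv_cancel_left]
      _ = r * (v * (r⁻¹ * a * r)) * r⁻¹ := by rw [h1]
      _ = r * v * r⁻¹ * a := by simp only [mul_assoc, mul_inv_cancel, mul_one]
  · calc r * v * r⁻¹ * (r * v * r⁻¹) = r * (v * v) * r⁻¹ := by simp only [mul_assoc, inv_mul_cancel_left]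
      _ = 1 := by rw [h.sq v hv]; simp

theorem K4.exists_sylIn [Finite G] {U : Subgroup G} (h : K4 U) (P : Sylow 2 G) (hUP : U ≤ (P : Subgroup G))
    (hUn : (P : Subgroup G) ≤ Subgroup.normalizer (U : Set G))
    (hUZ : ¬ IsCyclic ↥((P : Subgroup G) ⊓ Subgroup.centralizer ((P : Subgroup G) : Set G)) →
      U ≤ Subgroup.centralizer ((P : Subgroup G) : Set G))
    {u : G} (hu : u ∈ U) (hu1 : u ≠ 1) :
    ∃ R, SylIn 2 R (Subgroup.normalizer (Subgroup.zpowers u : Set G)) ∧
      R ≤ Subgroup.normalizer (U : Set G) := by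
  have : Fact (Nat.Prime 2) := ⟨Nat.prime_two⟩
  by_cases hall : ∀ g ∈ (P : Subgroup G), g * u * g⁻¹ = u
  · exact ⟨P, (sylIn_top P).mono (fun g hg => mem_normalizer_zpowers_of_conj_eq (hall g hg)) le_top, hUn⟩
  · push Not at hall
    obtain ⟨g, hg, hgu⟩ := hall
    by_cases hcyc : IsCyclic ↥((P : Subgroup G) ⊓ Subgroup.centralizer ((P : Subgroup G) : Set G))
    · exact h.exists_sylIn_aux P hUP hUn hcyc hu hu1 hg hgu
    · exfalso
      apply hgu
      have := (mem_centralizer_iff_commute.mp (hUZ hcyc hu)) g hg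
      exact mul_inv_eq_iff_eq_mul.mpr this.eq.symm

theorem K4.le_centralizer_of_odd [Finite G] {U : Subgroup G} (h : K4 U)
    (h2 : Cfsg.IsCharacteristicTwoType G) (P : Sylow 2 G) (hUP : U ≤ (P : Subgroup G))
    (hUn : (P : Subgroup G) ≤ Subgroup.normalizer (U : Set G))
    (hUZ : ¬ IsCyclic ↥((P : Subgroup G) ⊓ Subgroup.centralizer ((P : Subgroup G) : Set G)) →
      U ≤ Subgroup.centralizer ((P : Subgroup G) : Set G))
    (K : Subgroup G) (hK : Odd (Nat.card K)) (hUK : U ≤ Subgroup.normalizer (K : Set G)) :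
    U ≤ Subgroup.centralizer (K : Set G) := by
  have : Fact (Nat.Prime 2) := ⟨Nat.prime_two⟩
  have hEA : Cfsg.IsElementaryAbelian 2 U :=
    ⟨⟨⟨fun a b => Subtype.ext (h.comm a a.2 b b.2)⟩⟩, fun a ha => by rw [pow_two]; exact h.sq a ha⟩
  have hgen := Cfsg.Agent.Lib.Helper9.gen_hyperplanes 2 U K hEA (by rw [h.card]; norm_num)
    (fun hd => by
      rw [Nat.odd_iff] at hK
      omega) hUK
  rw [Subgroup.le_centralizer_iff, hgen]
  refine iSup_le ?_
  rintro ⟨B, hBU, hBi⟩
  have hBne : B ≠ ⊥ := by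
    rintro rfl
    rw [Subgroup.relIndex_bot_left, h.card] at hBi
    omega
  obtain ⟨u, huB, hu1⟩ : ∃ u ∈ B, u ≠ 1 := by
    by_contra hcon
    push Not at hcon
    exact hBne ((Subgroup.eq_bot_iff_forall _).mpr hcon)
  have hu := hBU huB
  obtain ⟨R, hR, hRU⟩ := h.exists_sylIn P hUP hUn hUZ hu hu1
  have hL : CharP 2 (Subgroup.normalizer (Subgroup.zpowers u : Set G)) :=
    (charP_iff' _).mp (h2.2 (Subgroup.zpowers u) (isPGroup_zpowers_of_sq (h.sq u hu))
      (by
        intro e
        exact hu1 (Subgroup.zpowers_eq_bot.mp e)))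
  refine le_trans ?_ (h.inf_centralizer_le hu hu1 hL hR hRU hK hUK)
  refine inf_le_inf_left _ (Subgroup.centralizer_le ?_)
  intro x hx
  rw [Set.mem_singleton_iff.mp hx]
  exact huB

end Cfsg.Agent.Lib.Helper16
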