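import Mathlib
import Cfsg.Agent.Lib.Helper16.FS2

set_option autoImplicit false
set_option linter.unusedSectionVars false

namespace Cfsg.Agent.Lib.Helper16

open Cfsg

variable {G : Type*} [Group G]

/-- `p`-local subgroup -/
def PLoc (p : ℕ) (M : Subgroup G) : Prop :=
  ∃ T : Subgroup G, IsPGroup p T ∧ T ≠ ⊥ ∧ M = Subgroup.normalizer (T : Set G)

/-- maximal `p`-local subgroup -/
def MaxPLoc (p : ℕ) (M : Subgroup G) : Prop :=
  PLoc p M ∧ ∀ L : Subgroup G, PLoc p L → M ≤ L → L = M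

variable [Finite G] {p : ℕ} [hp : Fact p.Prime] {M L A R : Subgroup G}

theorem PLoc.exists_max (h : PLoc p L) : ∃ M, MaxPLoc p M ∧ L ≤ M := by
  obtain ⟨M, hLM, hM⟩ := (Set.toFinite {M : Subgroup G | PLoc p M}).exists_le_maximal h
  exact ⟨M, ⟨hM.1, fun K hK hMK => le_antisymm (hM.2 hK hMK) hMK⟩, hLM⟩

theorem PLoc.conj (h : PLoc p M) (g : G) : PLoc p (M.map (MulAut.conj g).toMonoidHom) := by
  obtain ⟨T, hT, hT1, rfl⟩ := h
  refine ⟨T.map (MulAut.conj g).toMonoidHom, isPGroup_conj hT g, ?_, (normalizer_conj T g).symm⟩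
  intro h
  exact hT1 ((Subgroup.map_eq_bot_iff_of_injective _ (MulAut.conj g).injective).mp h)

theorem MaxPLoc.conj (h : MaxPLoc p M) (g : G) : MaxPLoc p (M.map (MulAut.conj g).toMonoidHom) := by
  refine ⟨h.1.conj g, fun K hK hMK => ?_⟩
  have h1 : M ≤ K.map (MulAut.conj g⁻¹).toMonoidHom := by
    have := conj_mono hMK g⁻¹
    rwa [conj_conj, inv_mul_cancel, conj_one] at this
  have h2 := h.2 _ (hK.conj g⁻¹) h1
  rw [← h2, conj_conj, mul_inv_cancel, conj_one]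

theorem MaxPLoc.normalizer_eq (h : MaxPLoc p M) (hR : IsPGroup p R) (hR1 : R ≠ ⊥)
    (hM : M ≤ Subgroup.normalizer (R : Set G)) : Subgroup.normalizer (R : Set G) = M :=
  h.2 _ ⟨R, hR, hR1, rfl⟩ hM

theorem MaxPLoc.pCoreOf_ne_bot (h : MaxPLoc p M) : pCoreOf p M ≠ ⊥ := by
  obtain ⟨⟨T, hT, hT1, rfl⟩, -⟩ := h
  intro h0
  apply hT1
  rw [eq_bot_iff, ← h0]
  exact le_pCoreOf Subgroup.le_normalizer le_rfl hT

theorem MaxPLoc.normalizer_le (h : MaxPLoc p M) : Subgroup.normalizer (M : Set G) ≤ M := by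
  have h1 := h.normalizer_eq (pCoreOf_isPGroup M) h.pCoreOf_ne_bot (le_normalizer_pCoreOf M)
  calc Subgroup.normalizer (M : Set G) ≤ Subgroup.normalizer (pCoreOf p M : Set G) :=
        normalizer_le_normalizer_pCoreOf M
    _ = M := h1

theorem MaxPLoc.conj_ne (h : MaxPLoc p M) {g : G} (hg : g ∉ M) :
    M.map (MulAut.conj g).toMonoidHom ≠ M := fun h1 =>
  hg (h.normalizer_le (mem_normalizer_of_conj_eq h1))

/-- a nontrivial normal subgroup of a group of characteristic `p` has nontrivial `O_p` -/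
theorem CharP.pCoreOf_ne_bot_of_normal (hc : CharP p M) (hA1 : A ≠ ⊥) (hAM : A ≤ M)
    (hn : M ≤ Subgroup.normalizer (A : Set G)) : pCoreOf p A ≠ ⊥ := by
  intro h0
  have h1 : A ⊓ pCoreOf p M ≤ pCoreOf p A := by
    refine le_pCoreOf inf_le_left ?_ ((pCoreOf_isPGroup M).to_le inf_le_right)
    exact le_normalizer_inf Subgroup.le_normalizer (hAM.trans (le_normalizer_pCoreOf M))
  have h2 : ⁅A, pCoreOf p M⁆ = ⊥ := by
    rw [eq_bot_iff, ← h0]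
    refine le_trans (le_inf ?_ ?_) h1
    · exact Cfsg.Agent.Lib.Helper8.commutator_le_left_of_le_normalizer ((pCoreOf_le M).trans hn)
    · exact Cfsg.Agent.Lib.Helper8.commutator_le_right_of_le_normalizer (hAM.trans (le_normalizer_pCoreOf M))
  have h3 : A ≤ pCoreOf p M := by
    refine le_trans (le_inf hAM ?_) hc
    exact Subgroup.commutator_eq_bot_iff_le_centralizer.mp h2
  apply hA1
  rw [eq_bot_iff, ← h0]
  exact le_pCoreOf le_rfl Subgroup.le_normalizer ((pCoreOf_isPGroup M).to_le h3)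

theorem MaxPLoc.normalizer_le_of_normal (h : MaxPLoc p M) (hc : CharP p M) (hA1 : A ≠ ⊥) (hAM : A ≤ M)
    (hn : M ≤ Subgroup.normalizer (A : Set G)) : Subgroup.normalizer (A : Set G) ≤ M := by
  have h1 := h.normalizer_eq (pCoreOf_isPGroup A) (hc.pCoreOf_ne_bot_of_normal hA1 hAM hn)
    (hn.trans (normalizer_le_normalizer_pCoreOf A))
  calc Subgroup.normalizer (A : Set G) ≤ Subgroup.normalizer (pCoreOf p A : Set G) :=
        normalizer_le_normalizer_pCoreOf A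
    _ = M := h1

/-- the primitive pair condition -/
def PrimPair (p : ℕ) (M₁ M₂ : Subgroup G) : Prop :=
  M₁ ≠ M₂ ∧ (∀ A : Subgroup G, A ≠ ⊥ → A ≤ M₁ ⊓ M₂ →
    (M₁ ≤ Subgroup.normalizer (A : Set G) → M₂ ⊓ Subgroup.normalizer (A : Set G) = M₁ ⊓ M₂) ∧
    (M₂ ≤ Subgroup.normalizer (A : Set G) → M₁ ⊓ Subgroup.normalizer (A : Set G) = M₁ ⊓ M₂)) ∧
  CharP p M₁ ∧ CharP p M₂ ∧ pCoreOf p M₁ ⊔ pCoreOf p M₂ ≤ M₁ ⊓ M₂

theorem primPair_of_common_sylow {M₁ M₂ : Subgroup G} (h1 : MaxPLoc p M₁) (h2 : MaxPLoc p M₂)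
    (c1 : CharP p M₁) (c2 : CharP p M₂) (hne : M₁ ≠ M₂) (s1 : SylIn p R M₁) (s2 : SylIn p R M₂) :
    PrimPair p M₁ M₂ := by
  refine ⟨hne, fun A hA1 hA => ⟨fun hn => ?_, fun hn => ?_⟩, c1, c2, ?_⟩
  · apply le_antisymm
    · exact le_inf (inf_le_right.trans (h1.normalizer_le_of_normal c1 hA1 (hA.trans inf_le_left) hn)) inf_le_left
    · exact le_inf inf_le_right (inf_le_left.trans hn)
  · apply le_antisymm
    · exact le_inf inf_le_left (inf_le_right.trans (h2.normalizer_le_of_normal c2 hA1 (hA.trans inf_le_right) hn))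
    · exact le_inf inf_le_left (inf_le_right.trans hn)
  · exact sup_le ((pCoreOf_le_sylIn s1).trans (le_inf s1.1 s2.1)) ((pCoreOf_le_sylIn s2).trans (le_inf s1.1 s2.1))

/-- key step -/
theorem exists_primPair_of_not_sylIn (hloc : ∀ M : Subgroup G, PLoc p M → CharP p M)
    {M₁ M₂ : Subgroup G} (h1 : MaxPLoc p M₁) (h2 : MaxPLoc p M₂) (hne : M₁ ≠ M₂)
    (hR : IsPGroup p R) (hR1 : R ≠ ⊥) (hRM₁ : R ≤ M₁) (hRM₂ : R ≤ M₂)
    (hmax : ∀ N₁ N₂ P : Subgroup G, MaxPLoc p N₁ → MaxPLoc p N₂ → N₁ ≠ N₂ → IsPGroup p P → P ≤ N₁ → P ≤ N₂ →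
      Nat.card P ≤ Nat.card R)
    (hns : ¬ SylIn p R M₁) : ∃ N₁ N₂ : Subgroup G, PrimPair p N₁ N₂ := by
  -- a general fact: not Sylow in `N` forces `N_G(R) ≤ N`
  have key : ∀ N : Subgroup G, MaxPLoc p N → R ≤ N → ¬ SylIn p R N →
      ∃ R₁ : Subgroup G, IsPGroup p R₁ ∧ R < R₁ ∧ R₁ ≤ N ∧ R₁ ≤ Subgroup.normalizer (R : Set G) ∧
        Subgroup.normalizer (R : Set G) ≤ N := by
    intro N hN hRN hns
    obtain ⟨T, hT, hRT⟩ := exists_sylIn_ge hR hRN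
    have hlt : R < T := lt_of_le_of_ne hRT (fun h => hns (h ▸ hT))
    have hlt2 := Cfsg.Agent.Lib.Helper8.exists_lt_le_normalizer hT.2.1 hlt
    obtain ⟨M₃, hM₃, hle⟩ := PLoc.exists_max (p := p) ⟨R, hR, hR1, rfl⟩
    have hp1 : IsPGroup p (T ⊓ Subgroup.normalizer (R : Set G) : Subgroup G) := hT.2.1.to_le inf_le_left
    refine ⟨T ⊓ Subgroup.normalizer (R : Set G), hp1, hlt2, inf_le_left.trans hT.1, inf_le_right, ?_⟩
    by_contra hcon
    have hne3 : N ≠ M₃ := fun h => hcon (h ▸ hle)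
    have := hmax N M₃ _ hN hM₃ hne3 hp1 (inf_le_left.trans hT.1) (inf_le_right.trans hle)
    exact absurd (Cfsg.Agent.Lib.Helper8.card_lt_of_lt hlt2) (not_lt.mpr this)
  obtain ⟨R₁, hR₁p, hlt, hR₁M, hR₁N, hNM⟩ := key M₁ h1 hRM₁ hns
  have hs2 : SylIn p R M₂ := by
    by_contra hns2
    obtain ⟨_, _, _, _, _, hNM₂⟩ := key M₂ h2 hRM₂ hns2
    have := hmax M₁ M₂ R₁ h1 h2 hne hR₁p hR₁M (hR₁N.trans hNM₂)
    exact absurd (Cfsg.Agent.Lib.Helper8.card_lt_of_lt hlt) (not_lt.mpr this)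
  obtain ⟨x, hx, hxR⟩ := SetLike.exists_of_lt hlt
  have hxM₂ : x ∉ M₂ := by
    intro hxM
    have hle : R ⊔ Subgroup.zpowers x ≤ R₁ := sup_le hlt.le (Subgroup.zpowers_le.mpr hx)
    have h3 := hmax M₁ M₂ (R ⊔ Subgroup.zpowers x) h1 h2 hne (hR₁p.to_le hle) (hle.trans hR₁M)
      (sup_le hRM₂ (Subgroup.zpowers_le.mpr hxM))
    have h4 : R < R ⊔ Subgroup.zpowers x := by
      refine lt_of_le_of_ne le_sup_left (fun h => hxR ?_)
      rw [h]
      exact (le_sup_right : Subgroup.zpowers x ≤ _) (Subgroup.mem_zpowers x)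
    exact absurd (Cfsg.Agent.Lib.Helper8.card_lt_of_lt h4) (not_lt.mpr h3)
  have hs3 : SylIn p R (M₂.map (MulAut.conj x).toMonoidHom) := by
    have := hs2.map_conj x
    rwa [conj_eq_of_mem_normalizer (hR₁N hx)] at this
  exact ⟨M₂, _, primPair_of_common_sylow h2 (h2.conj x) (hloc _ h2.1) (hloc _ (h2.conj x).1)
    (h2.conj_ne hxM₂).symm hs2 hs3⟩

/-- **primitive pairs or strongly `p`-embedded maximal `p`-locals.** -/
theorem exists_primPair_or (hloc : ∀ M : Subgroup G, PLoc p M → CharP p M) (hOp : pCore p G = ⊥) :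
    (∃ N₁ N₂ : Subgroup G, PrimPair p N₁ N₂) ∨
    ∀ M : Subgroup G, MaxPLoc p M → M ≠ ⊤ ∧ p ∣ Nat.card M ∧
      ∀ g : G, g ∉ M → ¬ p ∣ Nat.card ↥(M ⊓ M.map (MulAut.conj g).toMonoidHom) := by
  by_cases hex : ∃ (M : Subgroup G) (g : G), MaxPLoc p M ∧ g ∉ M ∧
      p ∣ Nat.card ↥(M ⊓ M.map (MulAut.conj g).toMonoidHom)
  · left
    obtain ⟨M, g, hM, hg, hdvd⟩ := hex
    -- the set of admissible `p`-subgroups
    let 𝒮 : Set (Subgroup G) := {P | IsPGroup p P ∧ ∃ N₁ N₂ : Subgroup G, MaxPLoc p N₁ ∧ MaxPLoc p N₂ ∧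
      N₁ ≠ N₂ ∧ P ≤ N₁ ∧ P ≤ N₂}
    obtain ⟨T, hT⟩ := exists_sylIn (p := p) (M ⊓ M.map (MulAut.conj g).toMonoidHom)
    have hT1 : T ≠ ⊥ := by
      intro h0
      apply hT.2.2
      rw [h0, Subgroup.relIndex_bot_left]
      exact hdvd
    have hT𝒮 : T ∈ 𝒮 := ⟨hT.2.1, M, _, hM, hM.conj g, (hM.conj_ne hg).symm, hT.1.trans inf_le_left,
      hT.1.trans inf_le_right⟩
    obtain ⟨R, hR𝒮, hRmax⟩ := Set.exists_max_image 𝒮 (fun P => Nat.card P) (Set.toFinite _) ⟨T, hT𝒮⟩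
    obtain ⟨hRp, M₁, M₂, h1, h2, hne, hRM₁, hRM₂⟩ := hR𝒮
    have hR1 : R ≠ ⊥ := by
      intro h0
      have h3 := hRmax T hT𝒮
      rw [h0, Subgroup.card_bot] at h3
      exact hT1 (Subgroup.card_le_one_iff_eq_bot T |>.mp h3)
    have hmax : ∀ N₁ N₂ P : Subgroup G, MaxPLoc p N₁ → MaxPLoc p N₂ → N₁ ≠ N₂ → IsPGroup p P → P ≤ N₁ →
        P ≤ N₂ → Nat.card P ≤ Nat.card R :=
      fun N₁ N₂ P a b c d e f => hRmax P ⟨d, N₁, N₂, a, b, c, e, f⟩
    by_cases hs1 : SylIn p R M₁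
    · by_cases hs2 : SylIn p R M₂
      · exact ⟨M₁, M₂, primPair_of_common_sylow h1 h2 (hloc _ h1.1) (hloc _ h2.1) hne hs1 hs2⟩
      · exact exists_primPair_of_not_sylIn hloc h2 h1 hne.symm hRp hR1 hRM₂ hRM₁ hmax hs2
    · exact exists_primPair_of_not_sylIn hloc h1 h2 hne hRp hR1 hRM₁ hRM₂ hmax hs1
  · right
    intro M hM
    obtain ⟨T, hT, hT1, hMT⟩ := hM.1
    refine ⟨?_, ?_, fun g hg hd => hex ⟨M, g, hM, hg, hd⟩⟩
    · intro htop
      apply hT1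
      rw [eq_bot_iff, ← hOp]
      refine le_pCore ?_ hT
      rw [← Subgroup.normalizer_eq_top_iff, ← hMT, htop]
    · obtain ⟨x, hx, hxo⟩ := exists_orderOf_eq_of_ne_bot hT hT1
      have hxM : x ∈ M := hMT ▸ (Subgroup.le_normalizer hx)
      have : orderOf (⟨x, hxM⟩ : ↥M) = p := by rw [← hxo]; simp
      rw [← this]
      exact orderOf_dvd_natCard _

end Cfsg.Agent.Lib.Helper16
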