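import Cfsg.Agent.Lib.Helper16.PRed3
import Cfsg.Agent.Lib.Helper16.FS2
import Cfsg.Agent.Lib.Helper16.FSQuot
import Cfsg.Prelude.Def_QuasithinSetup

/-! The members of `ℒ_f(G, T)`. -/

namespace Cfsg.Agent.Lib.Helper16

open Cfsg Cfsg.Agent.Lib.Helper8

variable {G : Type*} [Group G]

/-- `Ω₁(Z(O_p(X)))` -/
def ZO (p : ℕ) (X : Subgroup G) : Subgroup G :=
  omegaOne p (pCoreOf p X ⊓ Subgroup.centralizer (pCoreOf p X : Set G))

section
variable [Finite G] {p : ℕ} [hp : Fact p.Prime] {X N K H V : Subgroup G}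

theorem zO_elemAb (X : Subgroup G) : IsElementaryAbelian p (ZO p X) := elemAb_omegaOne_center p _

theorem zO_le_pCoreOf (X : Subgroup G) : ZO p X ≤ pCoreOf p X := (omegaOne_le _ _).trans inf_le_left

theorem zO_le (X : Subgroup G) : ZO p X ≤ X := (zO_le_pCoreOf X).trans (pCoreOf_le X)

theorem pCoreOf_le_centralizer_zO (X : Subgroup G) :
    pCoreOf p X ≤ Subgroup.centralizer (ZO p X : Set G) :=
  Subgroup.le_centralizer_iff.mp ((omegaOne_le _ _).trans inf_le_right)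

theorem le_normalizer_zO (h : K ≤ Subgroup.normalizer (X : Set G)) :
    K ≤ Subgroup.normalizer (ZO p X : Set G) := by
  have h1 : K ≤ Subgroup.normalizer (pCoreOf p X : Set G) := h.trans (normalizer_le_normalizer_pCoreOf X)
  exact (le_normalizer_inf h1 (h1.trans (normalizer_le_normalizer_centralizer _))).trans
    (normalizer_le_normalizer_omegaOne p _)

theorem zO_down_normal (hX : CharP p X) (hNX : N ≤ X) (hn : X ≤ Subgroup.normalizer (N : Set G)) {a : G}
    (ha : a ∈ N) (hcop : (orderOf a).Coprime p) (hac : a ∈ Subgroup.centralizer (ZO p X : Set G)) :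
    a ∈ Subgroup.centralizer (ZO p N : Set G) := by
  have hXn : X ≤ Subgroup.normalizer (ZO p N : Set G) := le_normalizer_zO hn
  have hinf : N ⊓ pCoreOf p X ≤ pCoreOf p N :=
    le_pCoreOf inf_le_left (le_normalizer_inf Subgroup.le_normalizer (hNX.trans (le_normalizer_pCoreOf X)))
      ((pCoreOf_isPGroup X).to_le inf_le_right)
  have hcomm := thompson_AxB_mod (elemAb_isPGroup (zO_elemAb (p := p) N)) (pCoreOf_isPGroup (p := p) X)
    ((pCoreOf_le X).trans hXn) (hXn (hNX ha)) hcop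
    (fun b hb => pCoreOf_le_centralizer_zO N (hinf ⟨?_, ?_⟩)) (fun x hx hxb => ?_)
  · rw [mem_centralizer_iff_commute]
    intro x hx
    exact (hcomm x hx).symm
  · have := N.mul_mem ha (conj_mem_of_le_normalizer hn (pCoreOf_le X hb) (N.inv_mem ha))
    simpa [mul_assoc] using this
  · exact (pCoreOf p X).mul_mem (conj_mem_of_le_normalizer (le_normalizer_pCoreOf X) (hNX ha) hb)
      ((pCoreOf p X).inv_mem hb)
  · have hxc : x ∈ Subgroup.centralizer (pCoreOf p X : Set G) :=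
      mem_centralizer_iff_commute.mpr (fun b hb => hxb b hb)
    have hxQ : x ∈ pCoreOf p X := hX ⟨hNX (zO_le N hx), hxc⟩
    have hxZ : x ∈ ZO p X := mem_omegaOne ⟨hxQ, hxc⟩ ((zO_elemAb (p := p) N).2 x hx)
    exact ((mem_centralizer_iff_commute.mp hac) x hxZ).eq.symm

theorem zO_down (hX : CharP p X) (hN : SubnIn N X) {a : G}
    (ha : a ∈ N) (hcop : (orderOf a).Coprime p) (hac : a ∈ Subgroup.centralizer (ZO p X : Set G)) :
    a ∈ Subgroup.centralizer (ZO p N : Set G) := by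
  induction hn : Nat.card X using Nat.strong_induction_on generalizing X with
  | _ n ih =>
    by_cases hne : N = X
    · subst hne; exact hac
    obtain ⟨M, hNM, hMX, hXM, hsub⟩ := hN.exists_normal hne
    exact ih _ (hn ▸ card_lt_of_lt hMX) (hX.of_normal hMX.le hXM) hsub
      (zO_down_normal hX hMX.le hXM (hNM ha) hcop hac) rfl

theorem zO_mono_of_le (hH : CharP p H) (hKH : K ≤ H) (hO : pCoreOf p H ≤ K) : ZO p K ≤ ZO p H := by
  have h1 : pCoreOf p H ≤ pCoreOf p K :=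
    le_pCoreOf hO (hKH.trans (le_normalizer_pCoreOf H)) (pCoreOf_isPGroup H)
  refine omegaOne_mono (fun x hx => ?_)
  have hxc : x ∈ Subgroup.centralizer (pCoreOf p H : Set G) :=
    Subgroup.centralizer_le (by exact_mod_cast h1) hx.2
  exact ⟨hH ⟨hKH (pCoreOf_le K hx.1), hxc⟩, hxc⟩

theorem centralizes_of_inf_subnIn (hV : IsPGroup p V) (hVH : V ≤ H)
    (hHV : H ≤ Subgroup.normalizer (V : Set G)) (hK : SubnIn K H) {x : G} (hx : x ∈ K)
    (hcop : (orderOf x).Coprime p) (hc : x ∈ Subgroup.centralizer ((V ⊓ K : Subgroup G) : Set G)) :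
    x ∈ Subgroup.centralizer (V : Set G) := by
  induction hn : Nat.card H using Nat.strong_induction_on generalizing V H with
  | _ n ih =>
    by_cases hne : K = H
    · subst hne
      rwa [inf_eq_left.mpr hVH] at hc
    obtain ⟨M, hKM, hMH, hHM, hsub⟩ := hK.exists_normal hne
    have h1 := ih _ (hn ▸ card_lt_of_lt hMH) (hV.to_le (inf_le_left : V ⊓ M ≤ V)) inf_le_right
      (le_normalizer_inf (hMH.le.trans hHV) Subgroup.le_normalizer) hsub
      (by rwa [inf_assoc, inf_eq_right.mpr hKM]) rfl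
    rw [mem_centralizer_iff_commute]
    intro v hv
    refine commute_of_chain hcop (hV.to_le (inf_le_left : V ⊓ M ≤ V))
      (mem_centralizer_iff_commute.mp h1) ⟨?_, ?_⟩
    · exact V.mul_mem (conj_mem_of_le_normalizer hHV (hMH.le (hKM hx)) hv) (V.inv_mem hv)
    · have := M.mul_mem (hKM hx) (conj_mem_of_le_normalizer hHM (hVH hv) (M.inv_mem (hKM hx)))
      simpa [mul_assoc] using this

theorem zO_inf_le (hK : SubnIn K H) : ZO p H ⊓ K ≤ ZO p K := by
  have h1 : ZO p H ⊓ K ≤ pCoreOf p K :=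
    le_pCoreOf inf_le_right
      (le_normalizer_inf (hK.le.trans (le_normalizer_zO Subgroup.le_normalizer)) Subgroup.le_normalizer)
      ((elemAb_isPGroup (zO_elemAb (p := p) H)).to_le inf_le_left)
  have h2 : pCoreOf p K ≤ pCoreOf p H :=
    subnIn_le_pCoreOf (pCoreOf_isPGroup K) ((SubnIn.of_normal (pCoreOf_le K) (le_normalizer_pCoreOf K)).trans hK)
  intro y hy
  refine mem_omegaOne ⟨h1 hy, ?_⟩ ((zO_elemAb (p := p) H).2 y hy.1)
  exact Subgroup.centralizer_le (by exact_mod_cast h2)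
    (Subgroup.le_centralizer_iff.mp (pCoreOf_le_centralizer_zO H) hy.1)

theorem zO_up (hK : SubnIn K H) {x : G} (hx : x ∈ K) (hcop : (orderOf x).Coprime p)
    (hc : x ∈ Subgroup.centralizer (ZO p K : Set G)) : x ∈ Subgroup.centralizer (ZO p H : Set G) :=
  centralizes_of_inf_subnIn (elemAb_isPGroup (zO_elemAb (p := p) H)) (zO_le H)
    (le_normalizer_zO Subgroup.le_normalizer) hK hx hcop
    (Subgroup.centralizer_le (by exact_mod_cast zO_inf_le hK) hc)

end

theorem oddGenerated_eq_pRes (K : Subgroup G) : oddGenerated K = pRes 2 K := by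
  rw [pRes_eq_closure]
  unfold oddGenerated
  congr 1
  ext x
  simp [Nat.coprime_two_right]

variable [Finite G]

theorem calL_data (hE : IsOfEvenCharacteristic G) (T : Sylow 2 G) {Y : Subgroup G}
    (hY : Y ∈ calL (T : Subgroup G)) :
    Y ≠ ⊥ ∧ ⁅Y, Y⁆ = Y ∧ SubnIn Y (Y ⊔ (T : Subgroup G)) ∧ CharP 2 (Y ⊔ (T : Subgroup G)) := by
  have : Fact (Nat.Prime 2) := ⟨Nat.prime_two⟩
  obtain ⟨⟨h1, h2, h3, -⟩, -, h5⟩ := hY
  have hmap : (Y.subgroupOf (Y ⊔ (T : Subgroup G))).map (Y ⊔ (T : Subgroup G)).subtype = Y :=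
    Subgroup.map_subgroupOf_eq_of_le le_sup_left
  refine ⟨?_, ?_, ⟨le_sup_left, h3⟩, ?_⟩
  · rintro rfl
    exact h1 (by simp)
  · have := congrArg (Subgroup.map (Y ⊔ (T : Subgroup G)).subtype) h2
    rwa [Subgroup.map_commutator, hmap] at this
  · have hO : pCoreOf 2 (Y ⊔ (T : Subgroup G)) ≠ ⊥ := fun e => h5 ((pCoreOf_eq_bot_iff _).mp e)
    have hHM := le_normalizer_pCoreOf (p := 2) (Y ⊔ (T : Subgroup G))
    have hTM : (T : Subgroup G) ≤ Subgroup.normalizer (pCoreOf 2 (Y ⊔ (T : Subgroup G)) : Set G) :=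
      le_sup_right.trans hHM
    have hM : CharP 2 (Subgroup.normalizer (pCoreOf 2 (Y ⊔ (T : Subgroup G)) : Set G)) :=
      (charP_iff' _).mp (hE _ ⟨_, pCoreOf_isPGroup _, hO, rfl⟩ ⟨T, hTM⟩)
    exact hM.of_pCoreOf_le ((pCoreOf_le_sylIn ((sylIn_top T).mono hTM le_top)).trans le_sup_right) hHM

theorem calLf_upward (hE : IsOfEvenCharacteristic G) (T : Sylow 2 G) {L K : Subgroup G}
    (hL : L ∈ calLf (T : Subgroup G)) (hK : K ∈ calL (T : Subgroup G)) (hLK : L ≤ K) :
    K ∈ calLf (T : Subgroup G) := by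
  have : Fact (Nat.Prime 2) := ⟨Nat.prime_two⟩
  obtain ⟨hK1, hK2, hK3, hK4⟩ := calL_data hE T hK
  obtain ⟨-, -, hL3, hL4⟩ := calL_data hE T hL.1
  obtain ⟨⟨-, hLodd, -⟩, hLV⟩ := hL.2
  refine ⟨hK, ⟨hK1, ?_, ?_⟩, ?_⟩
  · rw [oddGenerated_eq_pRes]
    exact pRes_eq_of_perfect hK2
  · exact (fstar_iff_charP K).mpr (hK4.of_subnIn hK3)
  · intro hV
    apply hLV
    have hV' : ⁅ZO 2 K, K⁆ = ⊥ := hV
    show ⁅ZO 2 L, L⁆ = ⊥
    rw [Subgroup.commutator_eq_bot_iff_le_centralizer, Subgroup.le_centralizer_iff] at hV' ⊢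
    rw [oddGenerated_eq_pRes] at hLodd
    refine le_trans hLodd.symm.le (pRes_le_iff.mpr ?_)
    intro x hx hcop
    have h1 := zO_up hK3 (hLK hx) hcop (hV' (hLK hx))
    have h2 : ZO 2 (L ⊔ (T : Subgroup G)) ≤ ZO 2 (K ⊔ (T : Subgroup G)) :=
      zO_mono_of_le hK4 (sup_le_sup_right hLK _)
        ((pCoreOf_le_sylIn ((sylIn_top T).mono le_sup_right le_top)).trans le_sup_right)
    exact zO_down hL4 hL3 hx hcop (Subgroup.centralizer_le (by exact_mod_cast h2) h1)

end Cfsg.Agent.Lib.Helper16
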