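import Mathlib
import Cfsg.Agent.Lib.Helper16.KBal
import Cfsg.Agent.Lib.Helper16.Comm
import Cfsg.Agent.Lib.Helper1.Coprime
import Cfsg.Agent.Lib.Helper17.Cores

set_option autoImplicit false

namespace Cfsg.Agent.Lib.Helper16

open Cfsg.Agent.Lib.Helper8
open scoped commutatorElement

variable {G : Type*} [Group G]

theorem coe_mem_normalizer_map_subtype [Finite G] {M : Subgroup G} {L : Subgroup M} {m : M}
    (h : m ∈ Subgroup.normalizer (L : Set M)) :
    (m : G) ∈ Subgroup.normalizer ((L.map M.subtype : Subgroup G) : Set G) := by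
  apply mem_normalizer_of_conj_mem
  rintro _ ⟨l, hl, rfl⟩
  exact ⟨m * l * m⁻¹, (Subgroup.mem_normalizer_iff.mp h l).mp hl, rfl⟩

theorem exists_component_unbalanced [Finite G] (H : Subgroup G) (hO : Cfsg.pPrimeCore 2 ↥H = ⊥) (t : G)
    (ht : orderOf t = 2) (htH : t ∈ Subgroup.normalizer (H : Set G)) (Y : Subgroup G) (hY1 : Y ≠ ⊥)
    (hY : Y ≤ coreIn 2 (H ⊓ Subgroup.centralizer ({t} : Set G))) :
    ∃ E : Subgroup G, CompIn E H ∧ t ∈ Subgroup.normalizer (E : Set G) ∧
      Y ≤ Subgroup.normalizer (E : Set G) ∧ t ∉ Subgroup.centralizer (E : Set G) ∧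
      ¬ Y ≤ Subgroup.centralizer (E : Set G) := by
  have : Fact (Nat.Prime 2) := ⟨Nat.prime_two⟩
  obtain ⟨Z, hZ⟩ : ∃ Z, Z = Subgroup.zpowers t := ⟨_, rfl⟩
  obtain ⟨M, hM⟩ : ∃ M, M = H ⊔ Z := ⟨_, rfl⟩
  have hZH : Z ≤ Subgroup.normalizer (H : Set G) := by rw [hZ, Subgroup.zpowers_le]; exact htH
  have hHM : H ≤ M := hM ▸ le_sup_left
  have hZM : Z ≤ M := hM ▸ le_sup_right
  have htZ : t ∈ Z := hZ ▸ Subgroup.mem_zpowers t
  have htM : t ∈ M := hZM htZ
  have hMH : M ≤ Subgroup.normalizer (H : Set G) := hM ▸ sup_le Subgroup.le_normalizer hZH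
  have ht2 : t ^ 2 = 1 := ht ▸ pow_orderOf_eq_one t
  have hcoreH : coreIn 2 H = ⊥ := by
    unfold coreIn
    rw [hO, Subgroup.map_bot]
  -- `O(M) = 1`
  have hOM : Cfsg.pPrimeCore 2 ↥M = ⊥ := by
    have hW : coreIn 2 M = ⊥ := by
      have h1 : coreIn 2 M ⊓ H = ⊥ := by
        rw [eq_bot_iff, ← hcoreH]
        apply le_coreIn_of_subnIn
        · apply SubnIn.of_normal inf_le_right
          exact le_normalizer_inf (hHM.trans (le_normalizer_coreIn 2 M)) Subgroup.le_normalizer
        · exact Nat.Coprime.of_dvd_left (Subgroup.card_dvd_of_le inf_le_left) (coprime_card_coreIn 2 M)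
      rw [eq_bot_iff]
      intro w hw
      have hwM := coreIn_le 2 M hw
      rw [hM] at hwM
      obtain ⟨h, hh, z, hz, rfl⟩ := exists_mul_of_mem_sup hZH hwM
      have hz2 : z * z = 1 := by
        rw [hZ] at hz
        obtain ⟨k, rfl⟩ := Subgroup.mem_zpowers_iff.mp hz
        rw [← zpow_add, ← two_mul, zpow_mul, zpow_ofNat, ht2, one_zpow]
      have hsq : (h * z) * (h * z) ∈ H := by
        have e : (h * z) * (h * z) = h * (z * h * z⁻¹) * (z * z) := by group
        rw [e, hz2, mul_one]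
        exact H.mul_mem hh ((Subgroup.mem_normalizer_iff.mp (hZH hz) h).mp hh)
      have h2 : (h * z) * (h * z) ∈ coreIn 2 M ⊓ H :=
        Subgroup.mem_inf.mpr ⟨Subgroup.mul_mem _ hw hw, hsq⟩
      rw [h1, Subgroup.mem_bot] at h2
      have h3 : orderOf (h * z) ∣ 2 := orderOf_dvd_of_pow_eq_one (by rw [pow_two]; exact h2)
      have h4 : orderOf (h * z) ∣ Nat.card (coreIn 2 M) := by
        have := orderOf_dvd_natCard (⟨h * z, hw⟩ : coreIn 2 M)
        rwa [Subgroup.orderOf_mk] at this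
      have h5 := Nat.eq_one_of_dvd_coprimes (coprime_card_coreIn 2 M) h4 h3
      rw [Subgroup.mem_bot]
      exact orderOf_eq_one_iff.mp h5
    unfold coreIn at hW
    exact (Subgroup.map_eq_bot_iff_of_injective _ M.subtype_injective).mp hW
  -- the image of `Y`
  obtain ⟨C0, hC0⟩ : ∃ C0, C0 = H ⊓ Subgroup.centralizer ({t} : Set G) := ⟨_, rfl⟩
  rw [← hC0] at hY
  have hYH : Y ≤ H := hY.trans ((coreIn_le 2 C0).trans (hC0 ▸ inf_le_left))
  have hOle : (coreIn 2 C0).subgroupOf M ≤ Cfsg.centralizerPPrimeCore 2 (⟨t, htM⟩ : M) := by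
    apply le_coreIn_of_subnIn
    · apply SubnIn.of_normal
      · intro x hx
        have h1 : (x : G) ∈ C0 := coreIn_le 2 C0 hx
        rw [hC0] at h1
        rw [Subgroup.mem_centralizer_singleton_iff]
        apply Subtype.ext
        exact Subgroup.mem_centralizer_singleton_iff.mp h1.2
      · intro c hc
        apply mem_normalizer_subgroupOf
        have : (Cfsg.pPrimeCore 2 ↥C0).Characteristic := Cfsg.Agent.Lib.Helper17.pPrimeCore_characteristic 2
        apply Cfsg.Agent.Lib.Helper1.normalizer_le_normalizer_map_char (Cfsg.pPrimeCore 2 ↥C0)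
        have hz : Subgroup.zpowers (c : G) ≤ Subgroup.normalizer (C0 : Set G) := by
          rw [hC0]
          apply le_normalizer_inf
          · rw [Subgroup.zpowers_le]; exact hMH c.2
          · rw [Subgroup.zpowers_le]
            apply Subgroup.le_normalizer
            rw [Subgroup.mem_centralizer_singleton_iff] at hc ⊢
            exact congrArg Subtype.val hc
        exact hz (Subgroup.mem_zpowers _)
    · exact Nat.Coprime.of_dvd_left (card_subgroupOf_dvd _ _) (coprime_card_coreIn 2 C0)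
  have hYM : Y.subgroupOf M ≤ Cfsg.centralizerPPrimeCore 2 (⟨t, htM⟩ : M) :=
    (Subgroup.comap_mono hY).trans hOle
  have htM2 : (⟨t, htM⟩ : M) ^ 2 = 1 := Subtype.ext ht2
  have htMo : orderOf (⟨t, htM⟩ : M) = 2 := by rw [Subgroup.orderOf_mk]; exact ht
  have hYM1 : Y.subgroupOf M ≠ ⊥ := by
    intro h
    apply hY1
    rw [Subgroup.subgroupOf_eq_bot, disjoint_iff, inf_eq_left.mpr (hYH.trans hHM)] at h
    exact h
  have hex : ∃ L : Subgroup M, Cfsg.IsComponent L ∧ ⁅L, Y.subgroupOf M⁆ ≠ ⊥ := by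
    by_contra hcon
    push Not at hcon
    exact hYM1 (eq_bot_of_centralizes 2 hOM
      (Nat.Coprime.of_dvd_left (Subgroup.card_dvd_of_le hYM) (coprime_card_coreIn 2 _))
      (hYM.trans (centralizerPPrimeCore_le_centralizer_pCore 2 htM2)) hcon)
  obtain ⟨L, hL, hLY⟩ := hex
  have hLt : ⁅L, Subgroup.zpowers (⟨t, htM⟩ : M)⁆ = L := by
    by_contra hne
    apply hLY
    rw [eq_bot_iff, ← commutator_centralizerPPrimeCore_eq_bot 2 hOM htMo hL hne]
    exact Subgroup.commutator_mono le_rfl hYM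
  have hLc := (isComponent_iff_compIn L).mp hL
  have hLperf : ⁅L.map M.subtype, L.map M.subtype⁆ = L.map M.subtype := hLc.2.1
  have hMM : ⁅M, M⁆ ≤ H := by
    have h1 : ⁅Z, M⁆ ≤ H := by
      rw [hM]
      apply commutator_sup_le Subgroup.le_normalizer hZH
      · exact commutator_le_right_of_le_normalizer hZH
      · have : ⁅Z, Z⁆ = ⊥ := by
          rw [Subgroup.commutator_eq_bot_iff_le_centralizer, hZ, Subgroup.zpowers_le,
            Subgroup.mem_centralizer_iff]
          intro y hy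
          obtain ⟨k, rfl⟩ := Subgroup.mem_zpowers_iff.mp hy
          exact (Commute.zpow_left (Commute.refl t) k).eq
        rw [this]; exact bot_le
    conv_lhs => rw [hM]
    rw [← hM, hM, ← hM]
    have h2 : ⁅M, H ⊔ Z⁆ ≤ H := by
      apply commutator_sup_le Subgroup.le_normalizer hZH
      · exact commutator_le_right_of_le_normalizer hMH
      · rw [Subgroup.commutator_comm]; exact h1
    rwa [← hM] at h2
  have hLH : L.map M.subtype ≤ H := by
    rw [← hLperf]
    exact (Subgroup.commutator_mono (Subgroup.map_subtype_le _) (Subgroup.map_subtype_le _)).trans hMM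
  refine ⟨L.map M.subtype, ⟨hLc.1.of_le hLH hHM, hLc.2⟩, ?_, ?_, ?_, ?_⟩
  · have : (⟨t, htM⟩ : M) ∈ Subgroup.normalizer (L : Set M) := by
      apply mem_normalizer_of_conj_mem
      intro a ha
      have h1 : a⁻¹ * (⟨t, htM⟩ : M) * a⁻¹⁻¹ * (⟨t, htM⟩ : M)⁻¹ ∈ ⁅L, Subgroup.zpowers (⟨t, htM⟩ : M)⁆ :=
        Subgroup.commutator_mem_commutator (L.inv_mem ha) (Subgroup.mem_zpowers _)
      rw [hLt] at h1
      have := L.mul_mem ha h1
      rw [inv_inv] at this
      have e : a * (a⁻¹ * (⟨t, htM⟩ : M) * a * (⟨t, htM⟩ : M)⁻¹) = (⟨t, htM⟩ : M) * a * (⟨t, htM⟩ : M)⁻¹ := by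
        group
      rwa [e] at this
    exact coe_mem_normalizer_map_subtype this
  · intro y hy
    have h1 : (⟨y, hHM (hYH hy)⟩ : M) ∈ Subgroup.normalizer (L : Set M) :=
      centralizerPPrimeCore_le_normalizer 2 hOM htM2 hL (hYM hy)
    exact coe_mem_normalizer_map_subtype h1
  · intro hc
    have hbot : ⁅L, Subgroup.zpowers (⟨t, htM⟩ : M)⁆ = ⊥ := by
      rw [Subgroup.commutator_comm, Subgroup.commutator_eq_bot_iff_le_centralizer, Subgroup.zpowers_le,
        Subgroup.mem_centralizer_iff]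
      intro l hl
      apply Subtype.ext
      exact Subgroup.mem_centralizer_iff.mp hc l ⟨l, hl, rfl⟩
    rw [hLt] at hbot
    apply hLY
    rw [hbot, Subgroup.commutator_bot_left]
  · intro hc
    apply hLY
    rw [Subgroup.commutator_comm, Subgroup.commutator_eq_bot_iff_le_centralizer]
    intro y hy
    rw [Subgroup.mem_centralizer_iff]
    intro l hl
    apply Subtype.ext
    exact Subgroup.mem_centralizer_iff.mp (hc hy) l ⟨l, hl, rfl⟩

end Cfsg.Agent.Lib.Helper16
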